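import Mathlib

/-!
# Blichfeldt's sixty-degree theorem for elements with generating conjugacy class

If a unitary operator moves every nonzero vector `v`, relative to the scalar `s`, by less than `‖v‖`,
then its `s`-eigenspace is invariant under all its conjugates in a finite unitary group.
-/

set_option autoImplicit false

open scoped InnerProductSpace ComplexConjugate
open Module

namespace Cfsg.Agent.H69.FewEigen

variable {G : Type*} [Group G] {E : Type*} [NormedAddCommGroup E] [InnerProductSpace ℂ E]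
  (σ : G →* (E →L[ℂ] E))

/-- The `s`-eigenspace of `σ x`. -/
def eigenW (x : G) (s : ℂ) : Submodule ℂ E :=
  LinearMap.ker ((σ x).toLinearMap - s • (LinearMap.id : E →ₗ[ℂ] E))

variable {σ}

/-- Membership in the eigenspace. -/
theorem mem_eigenW {x : G} {s : ℂ} {v : E} : v ∈ eigenW σ x s ↔ σ x v = s • v := by
  simp [eigenW, sub_eq_zero]

/-- Composition of two actions. -/
theorem act_act (a b : G) (v : E) : σ a (σ b v) = σ (a * b) v := by
  rw [map_mul]; rfl

/-- The range of `σ x - s` is orthogonal to the `s`-eigenspace of an isometry. -/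
theorem inner_eq_zero_of_mem (hσ : ∀ g w, ‖σ g w‖ = ‖w‖) {x : G} {s : ℂ} (hs : ‖s‖ = 1) {w : E}
    (hw : w ∈ eigenW σ x s) (v : E) : ⟪w, σ x v - s • v⟫_ℂ = 0 := by
  have h : ⟪σ x w, σ x v⟫_ℂ = ⟪w, v⟫_ℂ :=
    LinearIsometry.inner_map_map ⟨(σ x).toLinearMap, fun y => hσ x y⟩ w v
  rw [mem_eigenW.1 hw, inner_smul_left] at h
  rw [inner_sub_right, inner_smul_right, ← h, ← mul_assoc, Complex.mul_conj,
    Complex.normSq_eq_norm_sq, hs, one_pow, Complex.ofReal_one, one_mul, sub_self]

variable [FiniteDimensional ℂ E] [Finite G]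

/-- Every conjugate of `x` leaves the `s`-eigenspace of `x` invariant. -/
theorem conj_mapsTo_eigenW (hσ : ∀ g w, ‖σ g w‖ = ‖w‖) {x : G} {s : ℂ} (hs : ‖s‖ = 1)
    (hnear : ∀ v : E, v ≠ 0 → ‖σ x v - s • v‖ < ‖v‖) (g : G) :
    ∀ w ∈ eigenW σ x s, σ (g * x * g⁻¹) w ∈ eigenW σ x s := by
  classical
  set W := eigenW σ x s
  set e := stdOrthonormalBasis ℂ W
  -- how far `σ y` moves the eigenspace off itself
  let off : G → Fin (finrank ℂ W) → E := fun y i =>
    σ y (e i : E) - W.starProjection (σ y (e i : E))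
  let f : G → ℝ := fun y => ∑ i, ‖off y i‖ ^ 2
  let C : Finset G := (Set.toFinite (Set.range fun c : G => c * x * c⁻¹)).toFinset
  have hC : ∀ y, y ∈ C ↔ ∃ c, c * x * c⁻¹ = y := fun y => by simp [C]
  have hoff0 : ∀ y i, off y i = 0 ↔ σ y (e i : E) ∈ W := fun y i => by
    simp only [off, sub_eq_zero]
    exact ⟨fun h => h ▸ W.starProjection_apply_mem _,
      fun h => (Submodule.starProjection_eq_self_iff.2 h).symm⟩
  have hf0 : ∀ y, f y = 0 → ∀ w ∈ W, σ y w ∈ W := by
    intro y hy w hw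
    have h1 : ∀ i, off y i = 0 := fun i => by
      have := (Finset.sum_eq_zero_iff_of_nonneg fun i _ => sq_nonneg ‖off y i‖).1 hy i
        (Finset.mem_univ i)
      simpa using this
    have h2 : w = ∑ i, e.repr ⟨w, hw⟩ i • (e i : E) := by
      have := congrArg W.subtype (e.sum_repr ⟨w, hw⟩)
      simpa using this.symm
    rw [h2, map_sum]
    exact W.sum_mem fun i _ => by rw [map_smul]; exact W.smul_mem _ ((hoff0 y i).1 (h1 i))
  suffices h : ∀ y ∈ C, f y = 0 from
    hf0 _ (h _ ((hC _).2 ⟨g, rfl⟩))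
  by_contra hcon
  push Not at hcon
  obtain ⟨y, hy, hmin⟩ := Finset.exists_min_image (C.filter fun y => f y ≠ 0) f
    (let ⟨y, hy, hy0⟩ := hcon; ⟨y, Finset.mem_filter.2 ⟨hy, hy0⟩⟩)
  obtain ⟨hyC, hy0⟩ := Finset.mem_filter.1 hy
  set z := y⁻¹ * x * y with hz
  have hzC : z ∈ C := (hC _).2 ⟨y⁻¹, by rw [hz, inv_inv]⟩
  -- `σ z - s` on the eigenspace is the transport of `σ x - s` on its image under `σ y`
  have hkey : ∀ w : E, σ z w - s • w = σ y⁻¹ (σ x (σ y w) - s • σ y w) := fun w => by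
    rw [map_sub, map_smul, act_act, act_act, act_act, inv_mul_cancel, map_one]
    rfl
  have hle : ∀ i, ‖off z i‖ ≤ ‖σ x (off y i) - s • off y i‖ := fun i => by
    have h1 : σ x (off y i) - s • off y i = σ x (σ y (e i : E)) - s • σ y (e i : E) := by
      have := mem_eigenW.1 (W.starProjection_apply_mem (σ y (e i : E)))
      simp only [off, map_sub, smul_sub, this]
      abel
    rw [h1, ← hσ y⁻¹ (σ x (σ y (e i : E)) - s • σ y (e i : E)), ← hkey]
    have h2 : off z i = Wᗮ.starProjection (σ z (e i : E) - s • (e i : E)) := by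
      rw [Submodule.starProjection_orthogonal']
      simp only [off, sub_apply, one_apply_eq_self, map_sub,
        map_smul, Submodule.starProjection_eq_self_iff.2 (e i).2]
      simp
    rw [h2]
    exact (Wᗮ.starProjection).le_opNorm _ |>.trans
      (mul_le_of_le_one_left (norm_nonneg _) (Submodule.starProjection_norm_le _))
  have hlt : f z < f y := by
    obtain ⟨i₀, hi₀⟩ : ∃ i, off y i ≠ 0 := by
      by_contra h
      push Not at h
      exact hy0 (Finset.sum_eq_zero fun i _ => by simp [h i])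
    have hle' : ∀ i, ‖σ x (off y i) - s • off y i‖ ≤ ‖off y i‖ := fun i => by
      rcases eq_or_ne (off y i) 0 with h | h
      · simp [h]
      · exact (hnear _ h).le
    refine Finset.sum_lt_sum (fun i _ => ?_) ⟨i₀, Finset.mem_univ _, ?_⟩
    · exact pow_le_pow_left₀ (norm_nonneg _) ((hle i).trans (hle' i)) 2
    · exact pow_lt_pow_left₀ ((hle i₀).trans_lt (hnear _ hi₀)) (norm_nonneg _) two_ne_zero
  have hz0 : f z = 0 := by
    by_contra h
    exact absurd (hmin z (Finset.mem_filter.2 ⟨hzC, h⟩)) (not_le.2 hlt)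
  -- so `σ z` stabilises the eigenspace; hence so does `σ y`
  have hyW : ∀ w ∈ W, σ y w ∈ W := by
    intro w hw
    set u := σ z w - s • w with hu
    have huW : u ∈ W := W.sub_mem (hf0 z hz0 w hw) (W.smul_mem _ hw)
    have hyu : σ y u = σ x (σ y w) - s • σ y w := by
      rw [hu, hkey, act_act, mul_inv_cancel, map_one]
      rfl
    -- `σ y u` is orthogonal to `u`, but `σ y` is close to the scalar `s`
    have horth : ⟪u, σ y u⟫_ℂ = 0 := by
      rw [hyu]
      exact inner_eq_zero_of_mem hσ hs huW _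
    obtain ⟨c, hc⟩ := (hC y).1 hyC
    have hnear' : u ≠ 0 → ‖σ y u - s • u‖ < ‖u‖ := fun hne => by
      have h1 : σ c⁻¹ u ≠ 0 := fun h => hne (by
        rw [← norm_eq_zero, ← hσ c⁻¹, h, norm_zero])
      have h2 := hnear _ h1
      rw [hσ c⁻¹ u, ← hσ c (σ x (σ c⁻¹ u) - s • σ c⁻¹ u), map_sub, map_smul] at h2
      simp only [act_act] at h2
      rwa [mul_inv_cancel, map_one, ← mul_assoc, hc] at h2
    have hu0 : u = 0 := by
      by_contra hne
      have h3 := norm_sub_sq (𝕜 := ℂ) (σ y u) (s • u)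
      rw [inner_smul_right, ← inner_conj_symm, horth, map_zero, mul_zero, map_zero, norm_smul, hs,
        one_mul, hσ] at h3
      have h4 := pow_lt_pow_left₀ (hnear' hne) (norm_nonneg _) two_ne_zero
      nlinarith [sq_nonneg ‖u‖]
    rw [mem_eigenW, ← sub_eq_zero, ← hyu, hu0, map_zero]
  exact hy0 (Finset.sum_eq_zero fun i _ => by
    rw [(hoff0 y i).2 (hyW _ (e i).2)]; simp)

/-- Blichfeldt: if moreover the conjugates of `x` generate the group, the eigenspace is invariant
under the whole group. -/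
theorem mapsTo_eigenW (hσ : ∀ g w, ‖σ g w‖ = ‖w‖) {x : G} {s : ℂ} (hs : ‖s‖ = 1)
    (hnear : ∀ v : E, v ≠ 0 → ‖σ x v - s • v‖ < ‖v‖)
    (hgen : Subgroup.closure (Set.range fun c : G => c * x * c⁻¹) = ⊤) (g : G) :
    ∀ w ∈ eigenW σ x s, σ g w ∈ eigenW σ x s := by
  have hg : g ∈ Subgroup.closure (Set.range fun c : G => c * x * c⁻¹) := hgen ▸ Subgroup.mem_top g
  rw [← Subgroup.mem_toSubmonoid, Subgroup.closure_toSubmonoid_of_finite] at hg
  induction hg using Submonoid.closure_induction with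
  | mem y hy => obtain ⟨c, rfl⟩ := hy; exact conj_mapsTo_eigenW hσ hs hnear c
  | one => intro w hw; rw [map_one]; exact hw
  | mul a b _ _ ha hb => intro w hw; rw [← act_act]; exact ha _ (hb _ hw)

omit [FiniteDimensional ℂ E] [Finite G] in
/-- An eigenbasis with all eigenvalues at distance less than one from `s` gives nearness. -/
theorem norm_sub_lt_of_eigen (hσ : ∀ g w, ‖σ g w‖ = ‖w‖) (q : G) {ι : Type*} [Fintype ι]
    (b : Basis ι ℂ E) (μ : ι → ℂ) (hb : ∀ i, σ q (b i) = μ i • b i) {s : ℂ}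
    (hμ : ∀ i, ‖μ i - s‖ < 1) {v : E} (hv : v ≠ 0) : ‖σ q v - s • v‖ < ‖v‖ := by
  classical
  have hnorm : ∀ i, ‖μ i‖ = 1 := fun i => by
    have := hσ q (b i)
    rw [hb, norm_smul] at this
    exact (mul_eq_right₀ (norm_ne_zero_iff.mpr (b.ne_zero i))).mp this
  have horth : ∀ i j, μ i ≠ μ j → ⟪b i, b j⟫_ℂ = 0 := fun i j hij => by
    have h : ⟪σ q (b i), σ q (b j)⟫_ℂ = ⟪b i, b j⟫_ℂ :=
      LinearIsometry.inner_map_map ⟨(σ q).toLinearMap, fun y => hσ q y⟩ _ _
    rw [hb, hb, inner_smul_left, inner_smul_right] at h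
    by_contra hne
    apply hij
    have h1 : conj (μ i) * μ j = 1 := mul_right_cancel₀ hne (by rw [mul_assoc, h, one_mul])
    calc μ i = μ i * (conj (μ i) * μ j) := by rw [h1, mul_one]
      _ = μ j := by
        rw [← mul_assoc, Complex.mul_conj, Complex.normSq_eq_norm_sq, hnorm, one_pow,
          Complex.ofReal_one, one_mul]
  set S := Finset.univ.image μ
  set P : ℂ → E := fun a => ∑ i ∈ Finset.univ.filter (fun i => μ i = a), b.repr v i • b i with hP
  have hPorth : ∀ a c, a ≠ c → ⟪P a, P c⟫_ℂ = 0 := fun a c hac => by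
    simp only [hP, sum_inner, inner_sum]
    refine Finset.sum_eq_zero fun i hi => Finset.sum_eq_zero fun j hj => ?_
    rw [inner_smul_left, inner_smul_right, horth _ _ ?_, mul_zero, mul_zero]
    rw [(Finset.mem_filter.mp hi).2, (Finset.mem_filter.mp hj).2]
    first | exact hac | exact hac.symm
  have hqP : ∀ a, σ q (P a) = a • P a := fun a => by
    simp only [hP, map_sum, map_smul, Finset.smul_sum]
    refine Finset.sum_congr rfl fun i hi => ?_
    rw [hb, (Finset.mem_filter.mp hi).2, smul_comm]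
  have hsum : v = ∑ a ∈ S, P a := by
    rw [hP, Finset.sum_fiberwise_of_maps_to (fun i hi => Finset.mem_image_of_mem μ hi), b.sum_repr]
  have hpyth : ∀ (f : ℂ → ℂ) (T : Finset ℂ),
      ‖∑ a ∈ T, f a • P a‖ ^ 2 = ∑ a ∈ T, ‖f a‖ ^ 2 * ‖P a‖ ^ 2 := fun f T => by
    induction T using Finset.induction_on with
    | empty => simp
    | insert a T ha ih =>
      rw [Finset.sum_insert ha, Finset.sum_insert ha, sq,
        norm_add_sq_eq_norm_sq_add_norm_sq_of_inner_eq_zero (𝕜 := ℂ) _ _ ?_, ← sq, ← sq, ih,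
        norm_smul, mul_pow]
      rw [inner_sum]
      refine Finset.sum_eq_zero fun c hc => ?_
      rw [inner_smul_left, inner_smul_right, hPorth a c (fun h => ha (h ▸ hc)), mul_zero, mul_zero]
  have hv2 : ‖v‖ ^ 2 = ∑ a ∈ S, ‖P a‖ ^ 2 := by
    have := hpyth (fun _ => 1) S
    simpa [← hsum] using this
  have hd : σ q v - s • v = ∑ a ∈ S, (a - s) • P a := by
    conv_lhs => rw [hsum, map_sum, Finset.smul_sum, ← Finset.sum_sub_distrib]
    exact Finset.sum_congr rfl fun a _ => by rw [hqP, sub_smul]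
  obtain ⟨a₀, ha₀, hPa₀⟩ : ∃ a ∈ S, P a ≠ 0 := by
    by_contra h
    push Not at h
    exact hv (hsum.trans (Finset.sum_eq_zero h))
  have hlt1 : ∀ a ∈ S, ‖a - s‖ ^ 2 < 1 := fun a ha => by
    obtain ⟨i, -, rfl⟩ := Finset.mem_image.1 ha
    exact pow_lt_one₀ (norm_nonneg _) (hμ i) two_ne_zero
  refine lt_of_pow_lt_pow_left₀ 2 (norm_nonneg _) ?_
  rw [hd, hpyth, hv2]
  refine Finset.sum_lt_sum (fun a ha => ?_) ⟨a₀, ha₀, ?_⟩
  · exact mul_le_of_le_one_left (sq_nonneg _) (hlt1 a ha).le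
  · exact mul_lt_of_lt_one_left (by positivity) (hlt1 a₀ ha₀)

end Cfsg.Agent.H69.FewEigen
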