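import Mathlib
import Cfsg.Agent.H56.GaloisTwist

/-!
# Divisibility of sums of `p`-th roots of unity and simultaneous approximation modulo a prime
-/

set_option autoImplicit false

open Polynomial

namespace Cfsg.Agent.H69.FewEigen

/-- If a natural combination of the `p`-th roots of unity is divisible by `m` in the algebraic
integers, then its coefficients are congruent modulo `m`. -/
theorem mod_eq_of_isIntegral_div {p : ℕ} (hp : p.Prime) {ζ : ℂ} (hζ : IsPrimitiveRoot ζ p)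
    (a : ℕ → ℕ) {m : ℕ} (hm : m ≠ 0)
    (h : IsIntegral ℤ ((∑ j ∈ Finset.range p, (a j : ℂ) * ζ ^ j) / (m : ℂ))) {i : ℕ} (hi : i < p) :
    a i % m = a 0 % m := by
  classical
  rcases Nat.lt_or_ge m 2 with hm1 | hm1
  · obtain rfl : m = 1 := by omega
    simp [Nat.mod_one]
  have := Fact.mk hp
  have : NeZero p := ⟨hp.pos.ne'⟩
  have : Fact (1 < m) := ⟨hm1⟩
  set β : ℂ := (∑ j ∈ Finset.range p, (a j : ℂ) * ζ ^ j) / (m : ℂ) with hβ
  have hm0 : (m : ℂ) ≠ 0 := Nat.cast_ne_zero.2 hm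
  obtain ⟨g, hg⟩ : ∃ g : ℤ[X], aeval ζ g = β := by
    have hmem : β ∈ Algebra.adjoin ℤ ({ζ} : Set ℂ) := by
      refine H56.Twist.mem_adjoin_of_isIntegral (q := p) (e := 1) (by rwa [pow_one]) h hm ?_
      rw [hβ, mul_div_cancel₀ _ hm0]
      exact Subalgebra.sum_mem _ fun j _ => Subalgebra.mul_mem _ (natCast_mem _ _)
        (Subalgebra.pow_mem _ (Algebra.self_mem_adjoin_singleton ℤ ζ) _)
    rwa [Algebra.adjoin_singleton_eq_range_aeval, AlgHom.mem_range] at hmem
  set A : ℤ[X] := ∑ j ∈ Finset.range p, C (a j : ℤ) * X ^ j with hA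
  have hF : cyclotomic p ℤ ∣ A - C (m : ℤ) * g := by
    rw [cyclotomic_eq_minpoly hζ hp.pos]
    refine minpoly.isIntegrallyClosed_dvd (hζ.isIntegral hp.pos) ?_
    rw [map_sub, map_mul, hg, aeval_C, hA, map_sum, hβ]
    simp [mul_div_cancel₀ _ hm0]
  obtain ⟨q, hq⟩ := Polynomial.map_dvd (Int.castRingHom (ZMod m)) hF
  rw [map_cyclotomic, Polynomial.map_sub, Polynomial.map_mul, map_C] at hq
  simp only [eq_intCast, Int.cast_natCast, ZMod.natCast_self, map_zero, zero_mul, sub_zero] at hq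
  set Ā := A.map (Int.castRingHom (ZMod m)) with hĀ
  have hcoeff : ∀ j < p, Ā.coeff j = (a j : ZMod m) := by
    intro j hj
    simp [hĀ, hA, Polynomial.coeff_map, Polynomial.coeff_X_pow, hj]
  have hdeg : Ā.natDegree ≤ p - 1 := by
    refine (natDegree_map_le).trans (natDegree_sum_le_of_forall_le _ _ fun j hj => ?_)
    exact (natDegree_C_mul_X_pow_le _ _).trans (by have := Finset.mem_range.1 hj; omega)
  have hq0 : q = C (q.coeff 0) := by
    rcases eq_or_ne q 0 with rfl | hne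
    · simp
    refine eq_C_of_natDegree_le_zero ?_
    have h1 : Ā.natDegree = (cyclotomic p (ZMod m)).natDegree + q.natDegree := by
      rw [hq]
      exact (cyclotomic.monic p _).natDegree_mul' hne
    rw [natDegree_cyclotomic, Nat.totient_prime hp] at h1
    omega
  have hall : ∀ j < p, (a j : ZMod m) = q.coeff 0 := by
    intro j hj
    rw [← hcoeff j hj, hq]
    conv_lhs => rw [hq0, coeff_mul_C, cyclotomic_prime, finsetSum_coeff]
    simp [Polynomial.coeff_X_pow, hj]
  exact (ZMod.natCast_eq_natCast_iff' _ _ _).1 ((hall i hi).trans (hall 0 hp.pos).symm)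

/-- Simultaneous approximation: if `6 ^ (|S| - 1) < p`, some nonzero multiple moves all of `S`
into an arc of less than one sixth on both sides of the multiple of a given point. -/
theorem exists_mul_small {p : ℕ} [Fact p.Prime] (S : Finset (ZMod p)) {j₀ : ZMod p} (hj₀ : j₀ ∈ S)
    (h : 6 ^ (S.card - 1) < p) :
    ∃ k : ZMod p, k ≠ 0 ∧ ∀ j ∈ S, ∃ t : ℤ, (t : ZMod p) = k * (j - j₀) ∧ 6 * |t| < p := by
  classical
  have hp : 0 < p := (Fact.out : p.Prime).pos
  let F : ZMod p → (↥(S.erase j₀) → Fin 6) := fun k j =>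
    ⟨6 * (k * ((j : ZMod p) - j₀)).val / p, Nat.div_lt_iff_lt_mul hp |>.2
      (Nat.mul_lt_mul_of_pos_left (ZMod.val_lt _) (by norm_num))⟩
  obtain ⟨k₁, k₂, hne, he⟩ := Fintype.exists_ne_map_eq_of_card_lt F (by
    rw [ZMod.card, Fintype.card_fun, Fintype.card_coe, Finset.card_erase_of_mem hj₀, Fintype.card_fin]
    exact h)
  refine ⟨k₁ - k₂, sub_ne_zero.2 hne, fun j hj => ?_⟩
  rcases eq_or_ne j j₀ with rfl | hjne
  · exact ⟨0, by simp, by simpa using hp⟩
  refine ⟨((k₁ * (j - j₀)).val : ℤ) - ((k₂ * (j - j₀)).val : ℤ), ?_, ?_⟩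
  · push_cast
    rw [ZMod.natCast_zmod_val, ZMod.natCast_zmod_val]
    ring
  · have hb : 6 * (k₁ * (j - j₀)).val / p = 6 * (k₂ * (j - j₀)).val / p := by
      have := congrArg Fin.val (congrFun he ⟨j, Finset.mem_erase.2 ⟨hjne, hj⟩⟩)
      simpa [F] using this
    set u := (k₁ * (j - j₀)).val
    set v := (k₂ * (j - j₀)).val
    have hu := Nat.div_add_mod (6 * u) p
    have hv := Nat.div_add_mod (6 * v) p
    have hu' := Nat.mod_lt (6 * u) hp
    have hv' := Nat.mod_lt (6 * v) hp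
    rw [hb] at hu
    generalize p * (6 * v / p) = w at hu hv
    rcases abs_cases ((u : ℤ) - (v : ℤ)) with ⟨e, -⟩ | ⟨e, -⟩ <;> rw [e] <;> omega

end Cfsg.Agent.H69.FewEigen
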