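import Cfsg.Agent.H69.FewEigen.Cyclotomic
import Cfsg.Agent.H69.FewEigen.Blichfeldt
import Cfsg.Agent.H25.Jordan
import Cfsg.Agent.H40.BlockSets
import Cfsg.Agent.H40.Simple
import Cfsg.Agent.H42.MaxIdeal

/-!
# Simple groups of order `p ^ a * q ^ b * g₀` with `p` large compared with `g₀`

The principal `p`-block has a non-principal character of degree prime to `q`.  On a central element
of order `p` of a Sylow `p`-subgroup the representation has at most `g₀` distinct eigenvalues, so
Blichfeldt's sixty-degree theorem bounds `p`.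
-/

set_option autoImplicit false

open scoped ComplexConjugate
open Module

namespace Cfsg.Agent.H69.FewEigen

variable {G : Type*} [Group G] [Finite G]

/-- The principal block contains a non-principal character of degree not divisible by `q`. -/
theorem exists_principal_not_dvd {p q : ℕ} [Fact p.Prime] (hq : q.Prime) {M : Ideal Cfsg.AlgInt}
    (hM : Cfsg.IsPModular p M) {x : G} (hx : orderOf x = p) :
    ∃ χ : Cfsg.IrrCharacter G, χ ∈ Cfsg.principalBlock M G ∧ (χ : G → ℂ) ≠ (fun _ => 1) ∧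
      ∃ (n : ℕ) (ρ : Representation ℂ G (Fin n → ℂ)),
        ρ.IsIrreducible ∧ ρ.character = (χ : G → ℂ) ∧ ¬ q ∣ n := by
  classical
  have : Fintype G := Fintype.ofFinite G
  have := hM.2.1
  by_contra hcon
  set B := Cfsg.principalBlock M G
  have hB : Cfsg.IsPBlock M B := ⟨H26.oneIrr G, rfl⟩
  have hsum := H40.sum_block_mul_conj_eq_zero hM hB (x := (1 : G)) (y := x)
    (by simpa using (Fact.out : p.Prime).not_dvd_one) (dvd_of_eq hx.symm)
  have h1B : H26.oneIrr G ∈ B := by
    intro g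
    exact ⟨0, 1, M.zero_mem, fun e => hM.2.1.ne_top ((Ideal.eq_top_iff_one M).2 e), by
      simp [H26.oneIrr, Cfsg.centralChar]⟩
  rw [← Finset.add_sum_erase _ _ (show H26.oneIrr G ∈ Finset.univ.filter (· ∈ B) by simp [h1B])]
    at hsum
  have hrest : ∀ χ ∈ (Finset.univ.filter (· ∈ B)).erase (H26.oneIrr G),
      IsIntegral ℤ ((χ : G → ℂ) 1 * conj ((χ : G → ℂ) x) / (q : ℂ)) := by
    intro χ hχ
    obtain ⟨n, ρ, hirr, hρ⟩ := χ.2
    have hne : (χ : G → ℂ) ≠ fun _ => 1 := fun e =>
      (Finset.mem_erase.1 hχ).1 (Subtype.ext e)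
    obtain ⟨c, hc⟩ : q ∣ n := by
      by_contra hnd
      exact hcon ⟨χ, by simpa using (Finset.mem_erase.1 hχ).2, hne, n, ρ, hirr, hρ, hnd⟩
    rw [← hρ, ρ.char_one, Module.finrank_fin_fun, show (n : ℂ) = (q : ℂ) * c by exact_mod_cast hc,
      ← H25.char_inv]
    rw [mul_assoc, mul_div_cancel_left₀ _ (Nat.cast_ne_zero.2 hq.ne_zero)]
    simpa using (isIntegral_algebraMap (R := ℤ) (A := ℂ) (x := (c : ℤ))).mul (H25.isIntegral_char ρ x⁻¹)
  have h2 : IsIntegral ℤ ((1 : ℂ) / (q : ℂ)) := by
    have h3 := (IsIntegral.sum _ hrest).neg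
    rw [← Finset.sum_div, ← neg_div, ← eq_neg_of_add_eq_zero_left hsum] at h3
    simpa [H26.oneIrr] using h3
  have := H25.dvd_of_isIntegral_div hq.ne_zero (m := 1) (by simpa using h2)
  exact hq.not_dvd_one this

/-- A `p`-th root of unity is congruent to one modulo a modular ideal. -/
theorem pow_root_sub_one_mem {p : ℕ} [Fact p.Prime] {M : Ideal Cfsg.AlgInt}
    (hM : Cfsg.IsPModular p M) {z : Cfsg.AlgInt} (hz : z ^ p = 1) (j : ℕ) : z ^ j - 1 ∈ M := by
  have hfield : IsDomain (Cfsg.AlgInt ⧸ M) :=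
    (Ideal.Quotient.isDomain_iff_prime M).2 hM.2.1.isPrime
  have hchar : CharP (Cfsg.AlgInt ⧸ M) p := by
    refine ⟨fun x => ?_⟩
    rw [← H40.natCast_mem_iff hM, ← Ideal.Quotient.eq_zero_iff_mem, map_natCast]
  rw [← Ideal.Quotient.eq_zero_iff_mem, map_sub, map_pow, map_one]
  refine eq_zero_of_pow_eq_zero (n := p) ?_
  rw [sub_pow_char, one_pow, ← pow_mul, mul_comm, pow_mul, ← map_pow, hz, map_one, one_pow,
    sub_self]

/-- The eigenvalues of an element of order `p` with small class: if `m = χ(1) / gcd(χ(1), |K|)`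
then there are at most `gcd(χ(1), |K|)` distinct ones. -/
theorem card_image_le {p : ℕ} [Fact p.Prime] {M : Ideal Cfsg.AlgInt} (hM : Cfsg.IsPModular p M)
    {x : G} (hK : ¬ p ∣ (Subgroup.centralizer ({x} : Set G)).index) {n : ℕ}
    (ρ : Representation ℂ G (Fin n → ℂ)) [ρ.IsIrreducible]
    (hblock : Cfsg.MemLocalIdeal M (Cfsg.centralChar ρ.character x - Cfsg.centralChar
      (fun _ : G => (1 : ℂ)) x))
    {ζ : ℂ} (hζ : IsPrimitiveRoot ζ p) {ι : Type*} [Fintype ι] (k : ι → ℕ)
    (hk : ∀ i, k i < p) (hcard : Fintype.card ι = n) (hchar : ρ.character x = ∑ i, ζ ^ k i) :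
    (Finset.univ.image k).card ≤ n.gcd (Subgroup.centralizer ({x} : Set G)).index := by
  classical
  have : Fintype G := Fintype.ofFinite G
  have hp : p.Prime := Fact.out
  set K := (Subgroup.centralizer ({x} : Set G)).index with hKdef
  have hn0 : 0 < n := by
    simpa [Module.finrank_fin_fun] using H25.finrank_pos_of_isIrreducible ρ
  set d := n.gcd K
  have hd0 : 0 < d := Nat.gcd_pos_of_pos_left _ hn0
  obtain ⟨m, hm⟩ : d ∣ n := Nat.gcd_dvd_left _ _
  obtain ⟨K', hK'⟩ : d ∣ K := Nat.gcd_dvd_right _ _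
  have hm0 : m ≠ 0 := by rintro rfl; rw [mul_zero] at hm; omega
  have hcop : Nat.Coprime m K' := by
    have : d = d * Nat.gcd m K' := by rw [← Nat.gcd_mul_left, ← hm, ← hK']
    exact (Nat.mul_eq_left hd0.ne').1 this.symm
  have hmC : (m : ℂ) ≠ 0 := Nat.cast_ne_zero.2 hm0
  have hdC : (d : ℂ) ≠ 0 := Nat.cast_ne_zero.2 hd0.ne'
  set α : ℂ := ρ.character x / (m : ℂ) with hα
  have homega : (K : ℂ) * ρ.character x / (n : ℂ) = (K' : ℂ) * α := by
    rw [hK', show (n : ℂ) = (d : ℂ) * m by exact_mod_cast hm, hα]; push_cast; field_simp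
  -- `α` is an algebraic integer
  have hαint : IsIntegral ℤ α := by
    obtain ⟨u, v, huv⟩ : IsCoprime (K' : ℤ) (m : ℤ) :=
      Int.isCoprime_iff_nat_coprime.2 (by simpa using hcop.symm)
    have h1 := H25.isIntegral_classSize_mul_char_div ρ x
    rw [Module.finrank_fin_fun, ← hKdef, homega] at h1
    have huv' : (u : ℂ) * K' + (v : ℂ) * m = 1 := by exact_mod_cast huv
    have h2 : α = (u : ℂ) * ((K' : ℂ) * α) + (v : ℂ) * ρ.character x := by
      rw [show ρ.character x = (m : ℂ) * α by rw [hα]; field_simp]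
      linear_combination -α * huv'
    rw [h2]
    exact (((isIntegral_algebraMap (x := u)).mul h1)).add
      ((isIntegral_algebraMap (x := v)).mul (H25.isIntegral_char ρ x))
  set a : ℕ → ℕ := fun j => (Finset.univ.filter fun i => k i = j).card
  have hsum : ρ.character x = ∑ j ∈ Finset.range p, (a j : ℂ) * ζ ^ j := by
    rw [hchar, ← Finset.sum_fiberwise_of_maps_to (g := k) (t := Finset.range p)
      (fun i _ => Finset.mem_range.2 (hk i))]
    refine Finset.sum_congr rfl fun j _ => ?_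
    rw [Finset.sum_congr rfl (fun i hi => by rw [(Finset.mem_filter.1 hi).2]), Finset.sum_const,
      nsmul_eq_mul]
  have htot : ∑ j ∈ Finset.range p, a j = n := by
    rw [← hcard, ← Finset.card_univ]
    exact (Finset.card_eq_sum_card_fiberwise fun i _ => Finset.mem_range.2 (hk i)).symm
  set r := a 0 % m with hr
  set c : ℕ → ℕ := fun j => a j / m with hc
  have hac : ∀ j ∈ Finset.range p, a j = r + m * c j := fun j hj => by
    rw [hr, ← mod_eq_of_isIntegral_div hp hζ a hm0 (by rw [← hsum]; exact hαint)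
      (Finset.mem_range.1 hj)]
    exact (Nat.mod_add_div _ _).symm
  set s := ∑ j ∈ Finset.range p, c j with hs
  have htot' : p * r + m * s = n := by
    rw [← htot, Finset.sum_congr rfl hac, Finset.sum_add_distrib, Finset.sum_const,
      Finset.card_range, smul_eq_mul, hs, Finset.mul_sum]
  have hαsum : α = ∑ j ∈ Finset.range p, (c j : ℂ) * ζ ^ j := by
    rw [hα, hsum, div_eq_iff hmC, Finset.sum_mul]
    have hgeom : ∑ j ∈ Finset.range p, ζ ^ j = 0 := hζ.geom_sum_eq_zero hp.one_lt
    rw [Finset.sum_congr rfl fun j hj => show (a j : ℂ) * ζ ^ j =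
      (r : ℂ) * ζ ^ j + (c j : ℂ) * ζ ^ j * (m : ℂ) by rw [hac j hj]; push_cast; ring,
      Finset.sum_add_distrib, ← Finset.mul_sum, hgeom, mul_zero, zero_add]
  -- the central character congruence
  have hsd : s ≤ d := by
    refine Nat.le_of_mul_le_mul_left (a := s) (b := d) (c := m) ?_ (Nat.pos_of_ne_zero hm0)
    rw [mul_comm m d, ← hm]; omega
  have hr0 : r = 0 := by
    have hpd : p ∣ d - s := by
      let z : Cfsg.AlgInt := ⟨ζ, hζ.isIntegral hp.pos⟩
      have hz : z ^ p = 1 := Subtype.ext (by simp [z, hζ.pow_eq_one])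
      have h1 : Cfsg.centralChar ρ.character x - Cfsg.centralChar (fun _ : G => (1 : ℂ)) x =
          (K' : ℂ) * (α - (d : ℂ)) := by
        rw [Cfsg.centralChar, Cfsg.centralChar, ← hKdef, ρ.char_one, Module.finrank_fin_fun,
          homega, hK']
        push_cast; ring
      obtain ⟨u, v, hu, hv, huv⟩ := h1 ▸ hblock
      have hv0 : (v : ℂ) ≠ 0 := fun e =>
        hv (by rw [show v = 0 from Subtype.ext e]; exact M.zero_mem)
      set t : Cfsg.AlgInt := ∑ j ∈ Finset.range p, (c j : Cfsg.AlgInt) * (z ^ j - 1) with ht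
      have htM : t ∈ M := M.sum_mem fun j _ => M.mul_mem_left _ (pow_root_sub_one_mem hM hz j)
      have htv : (t : ℂ) = α - (s : ℂ) := by
        rw [hαsum, hs, ht]
        push_cast
        rw [← Finset.sum_sub_distrib]
        exact Finset.sum_congr rfl fun j _ => by simp only [z]; ring
      have h2 : v * ((K' : Cfsg.AlgInt) * (t - ((d - s : ℕ) : Cfsg.AlgInt))) = u :=
        Subtype.ext (by
          push_cast [Nat.cast_sub hsd]
          rw [htv, show α - (s : ℂ) - ((d : ℂ) - (s : ℂ)) = α - (d : ℂ) by ring, ← huv,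
            mul_div_cancel₀ _ hv0])
      have hK'M : (K' : Cfsg.AlgInt) ∉ M := fun e =>
        hK (((H40.natCast_mem_iff hM).1 e).trans ⟨d, by rw [hK', mul_comm]⟩)
      have h3 : t - ((d - s : ℕ) : Cfsg.AlgInt) ∈ M :=
        (hM.2.1.isPrime.mem_or_mem (((hM.2.1.isPrime.mem_or_mem (h2.symm ▸ hu)).resolve_left hv))
          ).resolve_left hK'M
      exact (H40.natCast_mem_iff hM).1 (by simpa using M.sub_mem htM h3)
    have hj : m * (d - s) = p * r := by
      rw [Nat.mul_sub, mul_comm m d, ← hm]; omega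
    have hlt : d - s < p := by
      by_contra hge
      have h4 : m * p ≤ p * r := hj ▸ Nat.mul_le_mul_left m (not_lt.1 hge)
      have h5 : r < m := Nat.mod_lt _ (Nat.pos_of_ne_zero hm0)
      have := Nat.mul_lt_mul_of_pos_left h5 hp.pos
      rw [mul_comm] at h4; omega
    rw [Nat.eq_zero_of_dvd_of_lt hpd hlt, mul_zero] at hj
    exact (Nat.mul_eq_zero.1 hj.symm).resolve_left hp.ne_zero
  calc (Finset.univ.image k).card = ∑ _j ∈ Finset.univ.image k, 1 := Finset.card_eq_sum_ones _
    _ ≤ ∑ j ∈ Finset.univ.image k, c j := Finset.sum_le_sum fun j hj => by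
        obtain ⟨i, -, rfl⟩ := Finset.mem_image.1 hj
        have h4 : 0 < a (k i) := Finset.card_pos.2 ⟨i, by simp⟩
        rw [hac _ (Finset.mem_range.2 (hk i)), hr0, zero_add] at h4
        exact Nat.pos_of_mul_pos_left h4
    _ ≤ s := Finset.sum_le_sum_of_subset fun j hj => by
        obtain ⟨i, -, rfl⟩ := Finset.mem_image.1 hj
        exact Finset.mem_range.2 (hk i)
    _ ≤ d := hsd

/-- The root of unity `exp (2 π i t / p)` with `6 |t| < p` is at distance less than one from `1`. -/
theorem norm_exp_sub_one_lt {p : ℕ} (hp : 0 < p) {t : ℤ} (ht : 6 * |t| < p) :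
    ‖Complex.exp (2 * Real.pi * Complex.I / p) ^ t - 1‖ < 1 := by
  rw [← Complex.exp_int_mul]
  set θ : ℝ := (t : ℝ) * (2 * Real.pi / p) with hθ
  have he : (t : ℂ) * (2 * Real.pi * Complex.I / p) = (θ : ℂ) * Complex.I := by
    rw [hθ]; push_cast; ring
  rw [he]
  have hp' : (0 : ℝ) < p := Nat.cast_pos.2 hp
  have hbound : |θ| < Real.pi / 3 := by
    have h6 : 6 * |(t : ℝ)| < p := by exact_mod_cast ht
    rw [hθ, abs_mul, abs_of_pos (by positivity : 0 < 2 * Real.pi / p), ← mul_div_assoc,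
      div_lt_div_iff₀ hp' (by norm_num : (0 : ℝ) < 3)]
    nlinarith [Real.pi_pos]
  have hcos : 1 / 2 < Real.cos θ := by
    rw [← Real.cos_pi_div_three, ← Real.cos_abs θ]
    exact Real.cos_lt_cos_of_nonneg_of_le_pi (abs_nonneg _) (by linarith [Real.pi_pos]) hbound
  refine lt_of_pow_lt_pow_left₀ 2 zero_le_one ?_
  rw [Complex.sq_norm, Complex.normSq_apply]
  simp only [Complex.sub_re, Complex.one_re, Complex.sub_im, Complex.one_im, sub_zero,
    Complex.exp_ofReal_mul_I_re, Complex.exp_ofReal_mul_I_im, one_pow]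
  nlinarith [Real.sin_sq_add_cos_sq θ]

/-- A simple group of order `p ^ a * q ^ b * g₀` other than `p` has `p < 6 ^ (g₀ - 1)`. -/
theorem lt_six_pow [IsSimpleGroup G] (p q a b g₀ : ℕ) (hp : p.Prime) (hq : q.Prime) (ha : 0 < a)
    (hg : Nat.card G = p ^ a * q ^ b * g₀) (hne : Nat.card G ≠ p) : p < 6 ^ (g₀ - 1) := by
  classical
  have := Fact.mk hp
  have : Fintype G := Fintype.ofFinite G
  by_contra hcon
  have hg0 : 0 < g₀ := Nat.pos_of_ne_zero (by rintro rfl; simp at hg)
  have hdvd : p ∣ Nat.card G :=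
    hg ▸ dvd_mul_of_dvd_left (dvd_mul_of_dvd_left (dvd_pow_self p ha.ne') _) _
  have hna : ∃ u v : G, u * v ≠ v * u := by
    by_contra h
    push Not at h
    let _ : CommGroup G := { (inferInstance : Group G) with mul_comm := h }
    exact hne ((Nat.prime_dvd_prime_iff_eq hp IsSimpleGroup.prime_card).1 hdvd).symm
  -- a central element of order `p` of a Sylow subgroup
  obtain ⟨P⟩ : Nonempty (Sylow p G) := inferInstance
  have : Nontrivial (P : Subgroup G) := by
    rw [← Finite.one_lt_card_iff_nontrivial, P.card_eq_multiplicity]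
    exact Nat.one_lt_pow (hp.factorization_pos_of_dvd Nat.card_pos.ne' hdvd).ne' hp.one_lt
  have := P.2.center_nontrivial
  obtain ⟨⟨⟨x, hxP⟩, hxc⟩, hx'⟩ :=
    exists_prime_orderOf_dvd_card' (G := Subgroup.center (P : Subgroup G)) p (by
      obtain ⟨l, hl⟩ := (P.2.to_subgroup (Subgroup.center (P : Subgroup G))).exists_card_eq
      rw [hl]
      refine dvd_pow_self p ?_
      rintro rfl
      rw [pow_zero] at hl
      exact absurd hl (Finite.one_lt_card_iff_nontrivial.2 this).ne')
  have hx : orderOf x = p := by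
    rwa [← Subgroup.orderOf_coe, ← Subgroup.orderOf_coe] at hx'
  have hx1 : x ≠ 1 := fun e => by rw [e, orderOf_one] at hx; exact hp.ne_one hx.symm
  have hPx : (P : Subgroup G) ≤ Subgroup.centralizer ({x} : Set G) := fun w hw => by
    rw [Subgroup.mem_centralizer_singleton_iff]
    exact congrArg Subtype.val (Subgroup.mem_center_iff.1 hxc ⟨w, hw⟩)
  have hK : ¬ p ∣ (Subgroup.centralizer ({x} : Set G)).index := fun h =>
    P.not_dvd_index (h.trans (Subgroup.index_dvd_of_le hPx))
  obtain ⟨M, hM⟩ := H42.exists_isPModular hp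
  obtain ⟨χ, hχB, hχ1, n, ρ, hirr, hρ, hqn⟩ := exists_principal_not_dvd hq hM hx
  have := hirr
  -- `ρ` is faithful
  have hinj : Function.Injective ρ := by
    rcases (MonoidHom.normal_ker ρ).eq_bot_or_eq_top with h | h
    · exact (MonoidHom.ker_eq_bot_iff ρ).mp h
    · exfalso
      have hchar : ∀ g, ρ.character g = (n : ℂ) := fun g => by
        have hmem : g ∈ MonoidHom.ker ρ := by rw [h]; exact Subgroup.mem_top g
        rw [Representation.character, MonoidHom.mem_ker.1 hmem]
        simp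
      have hs := H25.sum_char_mul_char_inv ρ
      simp only [hchar, Finset.sum_const, Finset.card_univ, nsmul_eq_mul] at hs
      rw [← Nat.card_eq_fintype_card] at hs
      have h2 : Nat.card G * (n * n) = Nat.card G := by exact_mod_cast hs
      have hn1 : n = 1 :=
        Nat.eq_one_of_mul_eq_one_right ((Nat.mul_eq_left Nat.card_pos.ne').mp h2)
      exact hχ1 (by funext g; rw [← hρ, hchar, hn1, Nat.cast_one])
  -- eigenvalues on the unitary form
  obtain ⟨σ, e, hσe, hσ⟩ := H25.exists_unitary_form ρ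
  obtain ⟨b₀, μ, hb₀, hμ, hchar⟩ := H25.exists_eigenbasis ρ x
  rw [hx] at hμ
  set ζ : ℂ := Complex.exp (2 * Real.pi * Complex.I / p) with hζdef
  have hζ : IsPrimitiveRoot ζ p := Complex.isPrimitiveRoot_exp p hp.ne_zero
  have : NeZero p := ⟨hp.ne_zero⟩
  have hex : ∀ i, ∃ j, j < p ∧ ζ ^ j = μ i := fun i => hζ.eq_pow_of_pow_eq_one (hμ i)
  choose k hk hkμ using hex
  set bE := b₀.map e with hbE
  have hbx : ∀ i, σ x (bE i) = μ i • bE i := fun i => by
    rw [hbE, Basis.map_apply, hσe, hb₀, map_smul]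
  -- few eigenvalues
  have hS : (Finset.univ.image k).card ≤ g₀ := by
    have h1 := card_image_le hM hK ρ ?_ hζ k hk ?_ ?_
    · refine h1.trans (Nat.le_of_dvd hg0 ?_)
      set d := n.gcd (Subgroup.centralizer ({x} : Set G)).index
      have hdK : d ∣ Nat.card G := (Nat.gcd_dvd_right _ _).trans (Subgroup.index_dvd_card _)
      have hdp : Nat.Coprime d (p ^ a) := Nat.Coprime.pow_right _ (Nat.Coprime.symm
        (hp.coprime_iff_not_dvd.2 fun h => hK (h.trans (Nat.gcd_dvd_right _ _))))
      have hdq : Nat.Coprime d (q ^ b) := Nat.Coprime.pow_right _ (Nat.Coprime.symm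
        (hq.coprime_iff_not_dvd.2 fun h => hqn (h.trans (Nat.gcd_dvd_left _ _))))
      exact (hdp.mul_right hdq).dvd_of_dvd_mul_left (hg ▸ hdK)
    · rw [hρ]; exact (hχB x : _) |> fun h => by
        obtain ⟨u, v, hu, hv, huv⟩ := h
        exact ⟨-u, v, M.neg_mem hu, hv, by push_cast; rw [neg_div, huv]; ring⟩
    · rw [Fintype.card_fin, Module.finrank_fin_fun]
    · rw [hchar]; exact Finset.sum_congr rfl fun i _ => (hkμ i).symm
  have hnpos : 0 < finrank ℂ (Fin n → ℂ) := H25.finrank_pos_of_isIrreducible ρ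
  -- the exponents as residues
  set S : Finset (ZMod p) := (Finset.univ.image k).image (fun j : ℕ => (j : ZMod p)) with hSdef
  have hScard : S.card ≤ g₀ := Finset.card_image_le.trans hS
  set i₀ : Fin (finrank ℂ (Fin n → ℂ)) := ⟨0, hnpos⟩
  have hj₀ : (k i₀ : ZMod p) ∈ S :=
    Finset.mem_image_of_mem _ (Finset.mem_image_of_mem _ (Finset.mem_univ _))
  have hlt : 6 ^ (S.card - 1) < p := by
    refine lt_of_le_of_ne ((Nat.pow_le_pow_right (by norm_num) (by omega)).trans (not_lt.1 hcon)) ?_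
    intro he
    rcases Nat.eq_zero_or_pos (S.card - 1) with h0 | h0
    · rw [h0, pow_zero] at he; exact hp.ne_one he.symm
    · exact hp.ne_one ((Nat.Prime.eq_one_or_self_of_dvd hp 6 (he ▸ dvd_pow_self 6 h0.ne')).elim
        (fun h => absurd h (by norm_num)) fun h => absurd (h ▸ hp) (by norm_num))
  obtain ⟨l, hl0, hl⟩ := exists_mul_small S hj₀ hlt
  -- the element `y` and its distinguished eigenvalue
  set y := x ^ l.val with hydef
  set s : ℂ := ζ ^ (l.val * k i₀) with hsdef
  have hby : ∀ i, σ y (bE i) = μ i ^ l.val • bE i := by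
    intro i
    rw [hydef, map_pow]
    induction l.val with
    | zero => simp
    | succ w ih => rw [pow_succ', mul_apply_eq_comp, ih, map_smul, hbx, smul_smul, pow_succ]
  have hsn : ‖s‖ = 1 := by
    rw [hsdef, norm_pow, Complex.norm_eq_one_of_pow_eq_one hζ.pow_eq_one hp.ne_zero, one_pow]
  have hμy : ∀ i, ‖μ i ^ l.val - s‖ < 1 := by
    intro i
    obtain ⟨t, ht, htp⟩ := hl (k i)
      (Finset.mem_image_of_mem _ (Finset.mem_image_of_mem _ (Finset.mem_univ _)))
    have heq : μ i ^ l.val = s * ζ ^ t := by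
      have hd : (p : ℤ) ∣ ((k i * l.val : ℕ) : ℤ) - (((l.val * k i₀ : ℕ) : ℤ) + t) := by
        rw [← ZMod.intCast_zmod_eq_zero_iff_dvd]
        push_cast
        rw [ht, ZMod.natCast_zmod_val]
        ring
      have h1 := (hζ.zpow_eq_one_iff_dvd _).2 hd
      rw [zpow_sub₀ (hζ.ne_zero hp.ne_zero), div_eq_one_iff_eq (zpow_ne_zero _ (hζ.ne_zero hp.ne_zero)),
        zpow_add₀ (hζ.ne_zero hp.ne_zero), zpow_natCast, zpow_natCast, pow_mul, hkμ i] at h1
      exact h1
    rw [heq, show s * ζ ^ t - s = s * (ζ ^ t - 1) by ring, norm_mul, hsn, one_mul]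
    exact norm_exp_sub_one_lt hp.pos htp
  -- Blichfeldt
  have hy1 : y ≠ 1 := fun h => by
    have h1 : p ∣ l.val := (dvd_of_eq hx.symm).trans (orderOf_dvd_of_pow_eq_one (hydef ▸ h))
    exact hl0 ((ZMod.val_eq_zero l).1 (Nat.eq_zero_of_dvd_of_lt h1 l.val_lt))
  have hgen : Subgroup.closure (Set.range fun c : G => c * y * c⁻¹) = ⊤ := by
    have hset : (Set.range fun c : G => c * y * c⁻¹) = Group.conjugatesOfSet {y} := by
      ext g
      simp [Group.conjugatesOfSet, conjugatesOf, isConj_iff]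
    rw [hset]
    refine (Subgroup.normalClosure_normal.eq_bot_or_eq_top).resolve_left fun h => hy1 ?_
    have := Subgroup.subset_normalClosure (Set.mem_singleton y)
    rw [h] at this
    exact Subgroup.mem_bot.1 this
  have hW := mapsTo_eigenW (σ := σ) hσ hsn
    (fun v hv => norm_sub_lt_of_eigen hσ y bE _ hby hμy hv) hgen
  -- the eigenspace is everything, so `y` is central
  set U : Submodule ℂ (Fin n → ℂ) := (eigenW σ y s).comap e.toLinearMap
  let UR : Subrepresentation ρ := ⟨U, fun g v hv => by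
    show e (ρ g v) ∈ eigenW σ y s
    rw [← hσe]; exact hW g _ hv⟩
  have hUtop : U = ⊤ := by
    rcases eq_bot_or_eq_top UR with h | h
    · exfalso
      have hmem : b₀ i₀ ∈ U := by
        show e (b₀ i₀) ∈ eigenW σ y s
        rw [mem_eigenW, ← Basis.map_apply b₀ e i₀, ← hbE, hby, hsdef, ← hkμ i₀, ← pow_mul, mul_comm]
      have h' : b₀ i₀ ∈ UR.toSubmodule := hmem
      rw [h] at h'
      exact b₀.ne_zero i₀ ((Submodule.mem_bot ℂ).1 h')
    · exact congrArg Subrepresentation.toSubmodule h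
  have hρy : ∀ v, ρ y v = s • v := fun v => e.injective (by
    have hv : v ∈ U := hUtop ▸ Submodule.mem_top
    rw [← hσe, map_smul]
    exact mem_eigenW.1 hv)
  have hyc : y ∈ Subgroup.center G := Subgroup.mem_center_iff.2 fun g => hinj (by
    rw [map_mul, map_mul]
    ext v
    simp [hρy])
  have htop : Subgroup.center G = ⊤ :=
    (inferInstance : (Subgroup.center G).Normal).eq_bot_or_eq_top.resolve_left fun h => hy1 (by
      rw [h, Subgroup.mem_bot] at hyc; exact hyc)
  obtain ⟨u, v, huv⟩ := hna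
  exact huv ((Subgroup.mem_center_iff.1 (htop ▸ Subgroup.mem_top v)) u)

end Cfsg.Agent.H69.FewEigen
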